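import Cfsg.Agent.Mult.Slices
import Cfsg.Agent.O82C.CertD

set_option autoImplicit false
set_option Elab.async false
set_option maxRecDepth 100000
set_option linter.all false

namespace Cfsg.Agent.O82C
open Cfsg.Agent.CGT

open Cfsg.Agent.Mult

set_option Elab.async false
theorem h_r0 : allL qRR (scalW 2 8 Rs Ts) = true := by decide +kernel

end Cfsg.Agent.O82C
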