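import Cfsg.Agent.Mult.Slices
import Cfsg.Agent.O82C.Tabs

set_option autoImplicit false
set_option Elab.async false
set_option maxRecDepth 100000
set_option linter.all false

namespace Cfsg.Agent.O82C
open Cfsg.Agent.CGT

open Cfsg.Agent.Mult

noncomputable def u3_D : PC := ⟨3, 5, 2, 21,
  [[0, 0x44, 0x50, 0x40, 0x100], [0, 0x200, 0x190, 0x140, 0x100], [0, 0, 0x100, 0x140, 0x100], [0, 0, 0, 0, 0x100], [0, 0, 0, 0, 0]],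
  [0xf, 0xf, 3, 0, 0],
  [(5, 1, 0x81), (5, 4, 0x220), (5, 0x10, 0x88), (5, 0x40, 0x80), (5, 0x100, 0x100), (6, 1, 2), (6, 0x100, 0x164)], 11, 0x2020103040100030004⟩
noncomputable def u3_ds : List (List ℕ) := [[6, 10, 12, 0, 2, 18, 8, 10, 2, 0], [10, 0, 14, 12, 6, 2, 18, 8, 10, 2, 12, 4, 12, 8], [2, 14, 6, 4, 2, 8, 0, 8, 2, 18, 6, 14, 12], [4, 10, 0, 12, 6, 0, 12, 2, 12, 0, 12, 2, 10, 4], [14, 16, 18, 2, 4, 0, 18, 10, 6, 0], [4, 2, 12, 0, 12, 2, 6, 12, 0, 10, 6, 4], [10, 16, 14, 2, 8, 0, 8, 14, 0]]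
noncomputable def u3_c : Mult.Cert := ⟨65, 19, [[], [], [], [1], [8]],
  [],
  [[9, 0, 0x30166e, 0x88b, 0x12ebdd], [0, 0x7c9f40, 0x9660f3, 0, 0x91f6f2], [0, 0, 0x207391, 0xda613, 0x1853d3], [0, 0, 0, 0x4ce3, 0x1037e2], [0, 0, 0, 0, 0x1cd52]]⟩

end Cfsg.Agent.O82C
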