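import Cfsg.Agent.Mult.Slices
import Cfsg.Agent.O82C.Mul3D

set_option autoImplicit false
set_option Elab.async false
set_option maxRecDepth 100000
set_option linter.all false

namespace Cfsg.Agent.O82C
open Cfsg.Agent.CGT

open Cfsg.Agent.Mult

set_option Elab.async false
theorem u3_all : allB u3_D u3_c [.assoc 4 8 4, .assoc 0x10 0x20 0x10, .assoc 0x100 4 1, .assoc 0x40 4 1, .assoc 0x80 0x40 4, .assoc 4 2 1, .assoc 0x10 4 1, .fus 5 [3, 0] [0, 3], .fus 5 [1, 1, 1] [4, 4], .fus 5 [3, 2] [2, 3, 4], .fus 5 [1, 0] [0, 1, 3], .fus 5 [2, 1] [1, 2, 3, 3, 4], .fus 6 [5, 5, 5] [], .fus 6 [6, 5] [5, 6], .fus 6 [6, 6, 6] []] 7 m_ts u3_ds [9, 8, 24, 4, 0, 1, 2] [(54, [0x10]), (48, [0x100, 0x14]), (0, [0x40]), (1, [1])] = true := by decide +kernel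

end Cfsg.Agent.O82C
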