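import Cfsg.Agent.Mult.Slices
import Cfsg.Agent.O82C.Tabs

set_option autoImplicit false
set_option Elab.async false
set_option maxRecDepth 100000
set_option linter.all false

namespace Cfsg.Agent.O82C
open Cfsg.Agent.CGT

open Cfsg.Agent.Mult

noncomputable def u5_D : PC := ⟨5, 2, 3, 20,
  [[0, 8], [0, 0]],
  [0, 0],
  [(2, 1, 2), (2, 8, 0x10)], 9, 0x1000100000001⟩
noncomputable def u5_ds : List (List ℕ) := [[0, 16, 18, 6, 8, 14, 12, 0, 2, 18, 8, 10, 2], [6, 8, 14, 0, 2, 0, 16, 4, 10, 6, 16], [2, 10, 8, 0, 8, 2, 12, 14, 6]]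
noncomputable def u5_c : Mult.Cert := ⟨13, 17, [[], []],
  [],
  [[5, 0x32], [0, 1]]⟩

end Cfsg.Agent.O82C
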