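import Cfsg.Agent.Mult.Slices
import Cfsg.Agent.O82C.Mulc2aD

set_option autoImplicit false
set_option Elab.async false
set_option maxRecDepth 100000
set_option linter.all false

namespace Cfsg.Agent.O82C
open Cfsg.Agent.CGT

open Cfsg.Agent.Mult

set_option Elab.async false
theorem mulc2a_p0 : holdsB 7 mulc2a_ns (takeL 53 (dropL 0 qRR)) = true := by decide +kernel
theorem mulc2a_m0 : monB 2 mulc2a_ns mulc2a_C mulc2a_U qRR mulc2a_a 0 53 = true := by decide +kernel
theorem mulc2a_i : invB mulc2a_ns mulc2a_U qRR mulc2a_a 53 = true := by decide +kernel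

end Cfsg.Agent.O82C
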