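import Cfsg.Agent.Mult.Slices
import Cfsg.Agent.O82C.Mulc2bT0

set_option autoImplicit false
set_option Elab.async false
set_option maxRecDepth 100000
set_option linter.all false

namespace Cfsg.Agent.O82C
open Cfsg.Agent.CGT

open Cfsg.Agent.Mult

theorem mulc2b_p : Holds (lp mulc2b_ns) qRR :=
  (forall_dropL (a := 0) (m := 53) (holdsB_sound mulc2b_v mulc2b_p0) (forall_dropL_end (l := qRR) (a := 53) (by decide +kernel)))
theorem mulc2b_proj : Proj (yM 2 mulc2b_ns mulc2b_C) (zM 2 mulc2b_U) 2 qRR mulc2b_a :=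
  have hq : 2 = 2 ∨ 2 = 3 ∨ 2 = 4 := by decide
  proj_mono hq mulc2b_v mulc2b_p (MonR.zero.step hq mulc2b_v mulc2b_m0) mulc2b_i

end Cfsg.Agent.O82C
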