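import Cfsg.Agent.CGT.Act

set_option autoImplicit false
set_option Elab.async false
set_option maxRecDepth 100000
set_option linter.all false

namespace Cfsg.Agent.O82C
open Cfsg.Agent.CGT

noncomputable def qRR : List (List ℕ) := [[0, 0], [2, 2], [4, 4], [6, 6], [8, 8], [10, 10], [12, 12], [14, 14], [16, 16], [18, 18], [18, 16, 18, 16], [14, 16, 14, 16], [14, 18, 14, 18], [12, 14, 12, 14], [12, 16, 12, 16], [12, 18, 12, 18], [10, 12, 10, 12], [10, 14, 10, 14], [10, 16, 10, 16], [10, 18, 10, 18], [8, 10, 8, 10], [8, 12, 8, 12], [8, 14, 8, 14], [8, 16, 8, 16], [8, 18, 8, 18], [6, 10, 6, 10, 6, 10], [14, 6, 10, 8, 14, 6, 8, 10], [12, 6, 10, 8, 6, 14, 6, 14, 16], [6, 12, 6, 10, 6, 12, 6, 10, 12], [14, 12, 6, 12, 6, 18, 6, 16, 6], [4, 6, 4, 6, 4, 6], [10, 8, 4, 10, 8, 14, 4, 14], [16, 12, 4, 10, 16, 4, 8,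 6, 8], [8, 4, 14, 8, 18, 4, 6, 8, 6], [12, 4, 6, 18, 12, 4, 6, 18], [14, 4, 16, 14, 4, 14, 16, 4, 16], [6, 12, 4, 10, 4, 8, 4, 14, 6, 4, 10], [2, 6, 2, 6, 2, 6], [6, 10, 8, 2, 4, 2, 12, 4, 8], [4, 2, 4, 10, 4, 2, 4, 10], [2, 12, 10, 16, 2, 10, 12, 16], [4, 12, 4, 2, 4, 12, 4, 2], [2, 14, 2, 8, 2, 14, 2, 8, 14], [16, 0, 6, 0, 12, 6], [4, 0, 4, 12, 4, 0, 4, 12], [18, 4, 0, 10, 8, 14, 0, 4, 16], [14, 0, 14, 18, 0, 18], [16, 4, 0, 4, 10, 4, 0, 4, 8, 12], [18, 16, 0, 4, 14, 4, 0, 4, 6, 4], [6, 18, 10, 6, 0, 8, 0, 8, 0], [14, 0, 8, 6, 2, 6, 8, 0, 14, 2], [10, 2, 14, 2, 10, 2, 14, 2], [0, 4, 0, 4, 0, 4, 0, 4]]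

end Cfsg.Agent.O82C
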